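import Mathlib.GroupTheory.Transfer
import Mathlib.GroupTheory.Sylow
import Mathlib.GroupTheory.SpecificGroups.Cyclic
import Mathlib.GroupTheory.Commutator.Basic
import Mathlib.Algebra.Group.ConjFinite

/-!
# Self-centralizing elements of prime order

Setting: `G` is a finite group, `x` an element of prime order `p` with `C_G(x) = ⟨x⟩`.
Elementary consequences used in statements S4495, S4496, S4497, S4509.
-/

set_option autoImplicit false

namespace Cfsg.Agent.Lib.SelfCent.Basic

open Subgroup

variable {G : Type*} [Group G] [Finite G] {p : ℕ} {x : G}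

/-- A generator-free restatement: every nontrivial element of `⟨x⟩` generates it. -/
theorem zpowers_eq_of_mem (hp : p.Prime) (hx : orderOf x = p) {y : G} (hy : y ∈ zpowers x)
    (hy1 : y ≠ 1) : zpowers y = zpowers x := by
  have : Fact p.Prime := ⟨hp⟩
  have hcard : Nat.card (zpowers x) = p := by rw [Nat.card_zpowers, hx]
  have hle : zpowers y ≤ zpowers x := (zpowers_le).2 hy
  have hd : Nat.card (zpowers y) ∣ Nat.card (zpowers x) := Subgroup.card_dvd_of_le hle
  rw [hcard] at hd
  have hne : Nat.card (zpowers y) ≠ 1 := by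
    intro h
    have : zpowers y = ⊥ := (Subgroup.card_eq_one).1 h
    exact hy1 (zpowers_eq_bot.1 this)
  have h2 : Nat.card (zpowers y) = p := ((Nat.dvd_prime hp).1 hd).resolve_left hne
  exact Subgroup.eq_of_le_of_card_ge hle (by rw [h2, hcard])

theorem centralizer_eq_of_mem (hp : p.Prime) (hx : orderOf x = p)
    (hC : centralizer ({x} : Set G) = zpowers x) {y : G} (hy : y ∈ zpowers x) (hy1 : y ≠ 1) :
    centralizer ({y} : Set G) = zpowers x := by
  have hz := zpowers_eq_of_mem hp hx hy hy1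
  rw [← hC]
  have hxy : x ∈ zpowers y := hz ▸ mem_zpowers x
  apply le_antisymm
  · intro g hg
    rw [mem_centralizer_singleton_iff] at hg ⊢
    obtain ⟨k, rfl⟩ := mem_zpowers_iff.1 hxy
    exact ((Commute.zpow_right (show Commute g y from hg) k)).eq
  · intro g hg
    rw [mem_centralizer_singleton_iff] at hg ⊢
    obtain ⟨k, rfl⟩ := mem_zpowers_iff.1 hy
    exact ((Commute.zpow_right (show Commute g x from hg) k)).eq

theorem mem_centralizer_of_commute {g y : G} (h : g * y = y * g) :
    g ∈ centralizer ({y} : Set G) := by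
  rw [mem_centralizer_singleton_iff]; exact h

/-- The normalizer of `⟨x⟩` acts on `x` by powers. -/
theorem exists_zpow_of_mem_normalizer {n : G}
    (hn : n ∈ normalizer ((zpowers x : Subgroup G) : Set G)) : ∃ k : ℤ, n * x * n⁻¹ = x ^ k := by
  have := (mem_normalizer_iff.1 hn x).1 (mem_zpowers x)
  obtain ⟨k, hk⟩ := mem_zpowers_iff.1 this
  exact ⟨k, hk.symm⟩

theorem conj_zpow_eq (n y : G) (k : ℤ) : n * y ^ k * n⁻¹ = (n * y * n⁻¹) ^ k := by
  simp [conj_zpow]

/-- Commutators of elements of the normalizer lie in `⟨x⟩`. -/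
theorem commutator_mem_of_mem_normalizer' (hC : centralizer ({x} : Set G) = zpowers x) {n m : G}
    (hn : n ∈ normalizer ((zpowers x : Subgroup G) : Set G))
    (hm : m ∈ normalizer ((zpowers x : Subgroup G) : Set G)) :
    n⁻¹ * m⁻¹ * n * m ∈ zpowers x := by
  obtain ⟨k, hk⟩ := exists_zpow_of_mem_normalizer hn
  obtain ⟨l, hl⟩ := exists_zpow_of_mem_normalizer hm
  rw [← hC]
  apply mem_centralizer_of_commute
  have h1 : n * m * x * (n * m)⁻¹ = x ^ (k * l) := by
    have : n * m * x * (n * m)⁻¹ = n * (m * x * m⁻¹) * n⁻¹ := by group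
    rw [this, hl, conj_zpow_eq, hk, ← zpow_mul]
  have h2 : m * n * x * (m * n)⁻¹ = x ^ (l * k) := by
    have : m * n * x * (m * n)⁻¹ = m * (n * x * n⁻¹) * m⁻¹ := by group
    rw [this, hk, conj_zpow_eq, hl, ← zpow_mul]
  rw [mul_comm l k] at h2
  have h3 : n * m * x * (n * m)⁻¹ = m * n * x * (m * n)⁻¹ := h1.trans h2.symm
  calc n⁻¹ * m⁻¹ * n * m * x
      = (m * n)⁻¹ * (n * m * x * (n * m)⁻¹) * (n * m) := by group
    _ = (m * n)⁻¹ * (m * n * x * (m * n)⁻¹) * (n * m) := by rw [h3]
    _ = x * (n⁻¹ * m⁻¹ * n * m) := by group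

theorem commutator_mem_of_mem_normalizer (hC : centralizer ({x} : Set G) = zpowers x) {n m : G}
    (hn : n ∈ normalizer ((zpowers x : Subgroup G) : Set G))
    (hm : m ∈ normalizer ((zpowers x : Subgroup G) : Set G)) :
    n * m * n⁻¹ * m⁻¹ ∈ zpowers x := by
  have := commutator_mem_of_mem_normalizer' hC (inv_mem hn) (inv_mem hm)
  simpa using this

/-- `⟨x⟩` is a Sylow subgroup. -/
theorem exists_sylow (hp : p.Prime) (hx : orderOf x = p)
    (hC : centralizer ({x} : Set G) = zpowers x) :
    ∃ P : Sylow p G, (P : Subgroup G) = zpowers x := by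
  have : Fact p.Prime := ⟨hp⟩
  have hpg : IsPGroup p (zpowers x) := by
    apply IsPGroup.of_card (n := 1)
    rw [Nat.card_zpowers, hx, pow_one]
  obtain ⟨Q, hQ⟩ := hpg.exists_le_sylow
  refine ⟨Q, le_antisymm ?_ hQ⟩
  have hQp : IsPGroup p (Q : Subgroup G) := Q.2
  have hx1 : x ≠ 1 := by
    intro h; rw [h, orderOf_one] at hx; exact hp.one_lt.ne hx
  have hnt : Nontrivial (Q : Subgroup G) :=
    ⟨⟨⟨x, hQ (mem_zpowers x)⟩, 1, by
      intro h; exact hx1 (congrArg Subtype.val h)⟩⟩
  have hcn := hQp.center_nontrivial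
  obtain ⟨z, hz⟩ := exists_ne (1 : center (Q : Subgroup G))
  have hz0 : ((z : (Q : Subgroup G)) : G) ≠ 1 := by
    intro h
    apply hz
    ext
    exact h
  have hzc : ((z : (Q : Subgroup G)) : G) ∈ zpowers x := by
    rw [← hC]
    apply mem_centralizer_of_commute
    have := (mem_center_iff.1 z.2) ⟨x, hQ (mem_zpowers x)⟩
    have h2 := congrArg Subtype.val this
    exact h2.symm
  have hcz := centralizer_eq_of_mem hp hx hC hzc hz0
  intro q hq
  rw [← hcz]
  apply mem_centralizer_of_commute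
  have := (mem_center_iff.1 z.2) ⟨q, hq⟩
  have h2 := congrArg Subtype.val this
  exact h2

theorem card_zpowers_eq (hx : orderOf x = p) : Nat.card (zpowers x) = p := by
  rw [Nat.card_zpowers, hx]

/-- Every subgroup that has order divisible by `p` and is normal contains `x`. -/
theorem zpowers_le_of_dvd (hp : p.Prime) (hx : orderOf x = p)
    (hC : centralizer ({x} : Set G) = zpowers x) (L : Subgroup G) [hL : L.Normal]
    (hdvd : p ∣ Nat.card L) : zpowers x ≤ L := by
  have : Fact p.Prime := ⟨hp⟩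
  obtain ⟨P, hP⟩ := exists_sylow hp hx hC
  obtain ⟨y, hy⟩ := exists_prime_orderOf_dvd_card' p hdvd
  have hy1 : (y : G) ≠ 1 := by
    intro h
    have : y = 1 := by ext; exact h
    rw [this, orderOf_one] at hy
    exact hp.one_lt.ne hy
  have hoy : orderOf (y : G) = p := by rw [Subgroup.orderOf_coe]; exact hy
  have hpg : IsPGroup p (zpowers (y : G)) := by
    apply IsPGroup.of_card (n := 1)
    rw [Nat.card_zpowers, hoy, pow_one]
  obtain ⟨Q, hQ⟩ := hpg.exists_le_sylow
  obtain ⟨g, hg⟩ := MulAction.exists_smul_eq G P Q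
  have hmem : (y : G) ∈ (g • P : Sylow p G) := by
    rw [hg]; exact hQ (mem_zpowers _)
  rw [Sylow.smul_def] at hmem
  have hmem' : g⁻¹ * y * g ∈ (P : Subgroup G) := by
    have := (Subgroup.mem_pointwise_smul_iff_inv_smul_mem (a := MulAut.conj g)
      (S := (P : Subgroup G)) (x := (y : G))).1 hmem
    simpa [MulAut.smul_def] using this
  rw [hP] at hmem'
  have hne : g⁻¹ * y * g ≠ 1 := by
    intro h
    apply hy1
    have : (y : G) = g * (g⁻¹ * y * g) * g⁻¹ := by group
    rw [this, h]; simp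
  have hz := zpowers_eq_of_mem hp hx hmem' hne
  rw [← hz, zpowers_le]
  have := hL.conj_mem (y : G) y.2 g⁻¹
  simpa using this

/-- For a normal subgroup `L` containing `x`, `G = N_G(⟨x⟩) L`. -/
theorem normalizer_sup_eq_top_of_le (hp : p.Prime) (hx : orderOf x = p)
    (hC : centralizer ({x} : Set G) = zpowers x) (L : Subgroup G) [L.Normal]
    (hL : zpowers x ≤ L) :
    normalizer ((zpowers x : Subgroup G) : Set G) ⊔ L = ⊤ := by
  have : Fact p.Prime := ⟨hp⟩
  obtain ⟨P, hP⟩ := exists_sylow hp hx hC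
  have := Sylow.normalizer_sup_eq_top' (N := L) P (by rw [hP]; exact hL)
  rw [← hP]
  exact this

/-- (a) of S4496: a normal subgroup of order divisible by `p` contains the derived subgroup. -/
theorem commutator_le_of_dvd (hp : p.Prime) (hx : orderOf x = p)
    (hC : centralizer ({x} : Set G) = zpowers x) (L : Subgroup G) [hL : L.Normal]
    (hdvd : p ∣ Nat.card L) : commutator G ≤ L := by
  have hle := zpowers_le_of_dvd hp hx hC L hdvd
  have htop := normalizer_sup_eq_top_of_le hp hx hC L hle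
  set N := normalizer ((zpowers x : Subgroup G) : Set G) with hN
  rw [commutator_def, Subgroup.commutator_le]
  intro a _ b _
  have ha : a ∈ N ⊔ L := htop ▸ mem_top a
  have hb : b ∈ N ⊔ L := htop ▸ mem_top b
  rw [Subgroup.mem_sup_of_normal_right] at ha hb
  obtain ⟨n, hn, s, hs, rfl⟩ := ha
  obtain ⟨m, hm, u, hu, rfl⟩ := hb
  have h := hle (commutator_mem_of_mem_normalizer hC hn hm)
  rw [← QuotientGroup.eq_one_iff] at h ⊢
  have hs1 : ((s : G) : G ⧸ L) = 1 := (QuotientGroup.eq_one_iff _).2 hs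
  have hu1 : ((u : G) : G ⧸ L) = 1 := (QuotientGroup.eq_one_iff _).2 hu
  simp only [commutatorElement_def, QuotientGroup.mk_mul, QuotientGroup.mk_inv, hs1, hu1, mul_one] at h ⊢
  exact h

/-- Key bijection. -/
theorem exists_conj_eq (S : Subgroup G) [hS : S.Normal] {y z : G}
    (hCS : S ⊓ centralizer ({y} : Set G) = ⊥) (hyz : y * z⁻¹ ∈ S) :
    ∃ u ∈ S, u⁻¹ * y * u = z := by
  have hmem : ∀ u : S, (u : G)⁻¹ * y * u * z⁻¹ ∈ S := by
    intro u
    have h1 : y * (u : G) * y⁻¹ ∈ S := hS.conj_mem _ u.2 y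
    have : (u : G)⁻¹ * y * u * z⁻¹ = (u : G)⁻¹ * (y * u * y⁻¹) * (y * z⁻¹) := by group
    rw [this]
    exact S.mul_mem (S.mul_mem (S.inv_mem u.2) h1) hyz
  let f : S → S := fun u => ⟨(u : G)⁻¹ * y * u * z⁻¹, hmem u⟩
  have hinj : Function.Injective f := by
    intro u v huv
    have h1 : (u : G)⁻¹ * y * u * z⁻¹ = (v : G)⁻¹ * y * v * z⁻¹ := congrArg Subtype.val huv
    have h2 : (u : G)⁻¹ * y * u = (v : G)⁻¹ * y * v := mul_right_cancel h1
    have h3 : (v : G) * (u : G)⁻¹ * y = y * ((v : G) * (u : G)⁻¹) := by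
      calc (v : G) * (u : G)⁻¹ * y = (v : G) * ((u : G)⁻¹ * y * u) * (u : G)⁻¹ := by group
        _ = (v : G) * ((v : G)⁻¹ * y * v) * (u : G)⁻¹ := by rw [h2]
        _ = y * ((v : G) * (u : G)⁻¹) := by group
    have h4 : (v : G) * (u : G)⁻¹ ∈ S ⊓ centralizer ({y} : Set G) :=
      ⟨S.mul_mem v.2 (S.inv_mem u.2), mem_centralizer_of_commute h3⟩
    rw [hCS, mem_bot] at h4
    ext
    exact (mul_inv_eq_one.1 h4).symm
  have hsurj : Function.Surjective f := Finite.injective_iff_surjective.1 hinj
  obtain ⟨u, hu⟩ := hsurj 1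
  refine ⟨u, u.2, ?_⟩
  have h1 : (u : G)⁻¹ * y * u * z⁻¹ = 1 := congrArg Subtype.val hu
  exact mul_inv_eq_one.1 h1

/-- `S ⊓ ⟨x⟩ = 1` for `S` normal of order prime to `p`. -/
theorem inf_zpowers_eq_bot (hp : p.Prime) (hx : orderOf x = p) (S : Subgroup G)
    (hS : ¬ p ∣ Nat.card S) : S ⊓ zpowers x = ⊥ := by
  rw [eq_bot_iff]
  intro y hy
  rw [mem_bot]
  by_contra hy1
  have hz := zpowers_eq_of_mem hp hx hy.2 hy1
  apply hS
  have h1 : zpowers y ≤ S := (zpowers_le).2 hy.1
  have h2 := Subgroup.card_dvd_of_le h1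
  rw [hz, card_zpowers_eq hx] at h2
  exact h2

theorem not_mem_of_not_dvd (hp : p.Prime) (hx : orderOf x = p) (S : Subgroup G)
    (hS : ¬ p ∣ Nat.card S) : x ∉ S := by
  intro h
  have h1 : x ∈ S ⊓ zpowers x := ⟨h, mem_zpowers x⟩
  rw [inf_zpowers_eq_bot hp hx S hS, mem_bot] at h1
  rw [h1, orderOf_one] at hx
  exact hp.one_lt.ne hx

/-- Every element of a normal `p'`-subgroup is a commutator with `x`. -/
theorem exists_commutator_eq (hp : p.Prime) (hx : orderOf x = p)
    (hC : centralizer ({x} : Set G) = zpowers x) (S : Subgroup G) [S.Normal]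
    (hS : ¬ p ∣ Nat.card S) {t : G} (ht : t ∈ S) : ∃ u ∈ S, u⁻¹ * x * u * x⁻¹ = t := by
  have h0 : S ⊓ centralizer ({x} : Set G) = ⊥ := by
    rw [hC]; exact inf_zpowers_eq_bot hp hx S hS
  have hyz : x * (t * x)⁻¹ ∈ S := by
    have : x * (t * x)⁻¹ = t⁻¹ := by group
    rw [this]; exact S.inv_mem ht
  obtain ⟨u, hu, h⟩ := exists_conj_eq S h0 hyz
  refine ⟨u, hu, ?_⟩
  rw [h]; group

/-- A normal `p'`-subgroup lies in the derived subgroup. -/
theorem le_commutator_of_not_dvd (hp : p.Prime) (hx : orderOf x = p)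
    (hC : centralizer ({x} : Set G) = zpowers x) (S : Subgroup G) [S.Normal]
    (hS : ¬ p ∣ Nat.card S) : S ≤ commutator G := by
  intro t ht
  obtain ⟨u, _, h⟩ := exists_commutator_eq hp hx hC S hS ht
  rw [← h, commutator_def]
  have := Subgroup.commutator_mem_commutator (mem_top u⁻¹) (mem_top x)
  simpa [commutatorElement_def] using this

/-- The image of `x` in `G/S` is still self-centralizing: the element level statement. -/
theorem mem_sup_zpowers_of_commutator_mem (hp : p.Prime) (hx : orderOf x = p)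
    (hC : centralizer ({x} : Set G) = zpowers x) (S : Subgroup G) [hS' : S.Normal]
    (hS : ¬ p ∣ Nat.card S) {y : G} (hy : y * x * y⁻¹ * x⁻¹ ∈ S) :
    ∃ u ∈ S, u * y ∈ zpowers x := by
  have h0 : S ⊓ centralizer ({x} : Set G) = ⊥ := by
    rw [hC]; exact inf_zpowers_eq_bot hp hx S hS
  have hyz : x * (y * x * y⁻¹)⁻¹ ∈ S := by
    have : x * (y * x * y⁻¹)⁻¹ = (y * x * y⁻¹ * x⁻¹)⁻¹ := by group
    rw [this]
    exact S.inv_mem hy
  obtain ⟨u, hu, h⟩ := exists_conj_eq S h0 hyz
  refine ⟨u, hu, ?_⟩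
  rw [← hC]
  apply mem_centralizer_of_commute
  calc u * y * x = u * (y * x * y⁻¹) * y := by group
    _ = u * (u⁻¹ * x * u) * y := by rw [h]
    _ = x * (u * y) := by group

theorem orderOf_mk_eq (hp : p.Prime) (hx : orderOf x = p) (S : Subgroup G) [S.Normal]
    (hS : ¬ p ∣ Nat.card S) : orderOf (QuotientGroup.mk x : G ⧸ S) = p := by
  have hne : (QuotientGroup.mk x : G ⧸ S) ≠ 1 := by
    rw [Ne, QuotientGroup.eq_one_iff]
    exact not_mem_of_not_dvd hp hx S hS
  have hpow : (QuotientGroup.mk x : G ⧸ S) ^ p = 1 := by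
    rw [← QuotientGroup.mk_pow, ← hx, pow_orderOf_eq_one]; rfl
  have : Fact p.Prime := ⟨hp⟩
  exact orderOf_eq_prime hpow hne

/-- Part (b): `G/S` has the same self-centralizing property. -/
theorem centralizer_mk_eq (hp : p.Prime) (hx : orderOf x = p)
    (hC : centralizer ({x} : Set G) = zpowers x) (S : Subgroup G) [hS' : S.Normal]
    (hS : ¬ p ∣ Nat.card S) :
    centralizer ({(QuotientGroup.mk x : G ⧸ S)} : Set (G ⧸ S)) =
      zpowers (QuotientGroup.mk x : G ⧸ S) := by
  apply le_antisymm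
  · intro q hq
    obtain ⟨y, rfl⟩ := QuotientGroup.mk_surjective q
    rw [mem_centralizer_singleton_iff] at hq
    have hc : y * x * y⁻¹ * x⁻¹ ∈ S := by
      rw [← QuotientGroup.eq_one_iff]
      simp only [QuotientGroup.mk_mul, QuotientGroup.mk_inv]
      rw [hq]; group
    obtain ⟨u, hu, h⟩ := mem_sup_zpowers_of_commutator_mem hp hx hC S hS hc
    have hu1 : (QuotientGroup.mk u : G ⧸ S) = 1 := (QuotientGroup.eq_one_iff _).2 hu
    have : (QuotientGroup.mk y : G ⧸ S) = QuotientGroup.mk (u * y) := by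
      rw [QuotientGroup.mk_mul, hu1, one_mul]
    rw [this]
    obtain ⟨k, hk⟩ := mem_zpowers_iff.1 h
    rw [← hk]
    exact ⟨k, by simp⟩
  · rw [zpowers_le, mem_centralizer_singleton_iff]

/-- `S ⊓ N_G(⟨x⟩) = 1` for `S` normal of order prime to `p`. -/
theorem inf_normalizer_eq_bot (hp : p.Prime) (hx : orderOf x = p)
    (hC : centralizer ({x} : Set G) = zpowers x) (S : Subgroup G) [hS' : S.Normal]
    (hS : ¬ p ∣ Nat.card S) : S ⊓ normalizer ((zpowers x : Subgroup G) : Set G) = ⊥ := by
  rw [eq_bot_iff]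
  rintro s ⟨hs, hn⟩
  have h0 := inf_zpowers_eq_bot hp hx S hS
  have h1 : s * x * s⁻¹ ∈ zpowers x := (mem_normalizer_iff.1 hn x).1 (mem_zpowers x)
  have h2 : s * x * s⁻¹ * x⁻¹ ∈ zpowers x := mul_mem h1 (inv_mem (mem_zpowers x))
  have h3 : s * x * s⁻¹ * x⁻¹ ∈ S := by
    have h4 : x * s⁻¹ * x⁻¹ ∈ S := hS'.conj_mem _ (S.inv_mem hs) x
    have : s * x * s⁻¹ * x⁻¹ = s * (x * s⁻¹ * x⁻¹) := by group
    rw [this]
    exact S.mul_mem hs h4
  have h5 : s * x * s⁻¹ * x⁻¹ ∈ S ⊓ zpowers x := ⟨h3, h2⟩
  rw [h0, mem_bot] at h5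
  have h6 : s * x = x * s := by
    have h7 : s * x * s⁻¹ = x := mul_inv_eq_one.1 h5
    calc s * x = s * x * s⁻¹ * s := by group
      _ = x * s := by rw [h7]
  have h8 : s ∈ zpowers x := hC ▸ mem_centralizer_of_commute h6
  have h9 : s ∈ S ⊓ zpowers x := ⟨hs, h8⟩
  rwa [h0] at h9

theorem card_sup_of_inf_eq_bot (S N : Subgroup G) [S.Normal] (h : S ⊓ N = ⊥) :
    Nat.card (S ⊔ N : Subgroup G) = Nat.card S * Nat.card N := by
  have h1 : (⊥ : Subgroup G).relIndex S * S.relIndex (S ⊔ N) = (⊥ : Subgroup G).relIndex (S ⊔ N) :=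
    relIndex_mul_relIndex _ _ _ bot_le le_sup_left
  rw [relIndex_bot_left, relIndex_bot_left, relIndex_sup_left, ← inf_relIndex_right, h,
    relIndex_bot_left] at h1
  exact h1.symm

theorem card_dvd_index_normalizer (hp : p.Prime) (hx : orderOf x = p)
    (hC : centralizer ({x} : Set G) = zpowers x) (S : Subgroup G) [hS' : S.Normal]
    (hS : ¬ p ∣ Nat.card S) :
    Nat.card S ∣ (normalizer ((zpowers x : Subgroup G) : Set G)).index := by
  set N := normalizer ((zpowers x : Subgroup G) : Set G) with hN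
  have h1 := card_sup_of_inf_eq_bot S N (inf_normalizer_eq_bot hp hx hC S hS)
  have h2 : Nat.card (S ⊔ N : Subgroup G) ∣ Nat.card G := Subgroup.card_subgroup_dvd_card _
  rw [h1, ← N.card_mul_index, mul_comm (Nat.card S)] at h2
  exact Nat.dvd_of_mul_dvd_mul_left Nat.card_pos h2

theorem all_sylow_card (hp : p.Prime) (hx : orderOf x = p)
    (hC : centralizer ({x} : Set G) = zpowers x) (Q : Sylow p G) :
    Nat.card (Q : Subgroup G) = p := by
  have : Fact p.Prime := ⟨hp⟩
  obtain ⟨P, hP⟩ := exists_sylow hp hx hC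
  rw [Sylow.card_eq_multiplicity Q, ← Sylow.card_eq_multiplicity P, hP, card_zpowers_eq hx]

/-- The subgroups of order `p` are the Sylow `p`-subgroups. -/
theorem card_subgroups_eq_index (hp : p.Prime) (hx : orderOf x = p)
    (hC : centralizer ({x} : Set G) = zpowers x) :
    Nat.card {H : Subgroup G // Nat.card H = p} =
      (normalizer ((zpowers x : Subgroup G) : Set G)).index := by
  have : Fact p.Prime := ⟨hp⟩
  obtain ⟨P, hP⟩ := exists_sylow hp hx hC
  have h1 : Nat.card (Sylow p G) = (normalizer ((P : Subgroup G) : Set G)).index :=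
    Sylow.card_eq_index_normalizer P
  rw [← hP, ← h1]
  apply Nat.card_congr
  refine (Equiv.ofBijective (fun Q : Sylow p G => (⟨Q, all_sylow_card hp hx hC Q⟩ :
    {H : Subgroup G // Nat.card H = p})) ⟨?_, ?_⟩).symm
  · intro Q R h
    exact Sylow.ext (congrArg Subtype.val h)
  · rintro ⟨H, hH⟩
    have hpg : IsPGroup p H := by
      apply IsPGroup.of_card (n := 1)
      rw [hH, pow_one]
    obtain ⟨Q, hQ⟩ := hpg.exists_le_sylow
    refine ⟨Q, ?_⟩
    apply Subtype.ext
    exact (Subgroup.eq_of_le_of_card_ge hQ (by rw [hH, all_sylow_card hp hx hC Q])).symm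

/-- `|S| ≡ 1 mod p`. -/
theorem card_mod_eq_one (hp : p.Prime) (hx : orderOf x = p)
    (hC : centralizer ({x} : Set G) = zpowers x) (S : Subgroup G) [hS' : S.Normal]
    (hS : ¬ p ∣ Nat.card S) : Nat.card S % p = 1 := by
  have : Fact p.Prime := ⟨hp⟩
  let φ : zpowers x →* MulAut S := (MulAut.conjNormal (H := S)).comp (zpowers x).subtype
  let _ : MulAction (zpowers x) S := MulAction.compHom S φ
  have hpg : IsPGroup p (zpowers x) := by
    apply IsPGroup.of_card (n := 1)
    rw [Nat.card_zpowers, hx, pow_one]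
  have h1 := hpg.card_modEq_card_fixedPoints S
  have h0 := inf_zpowers_eq_bot hp hx S hS
  have hfix : Nat.card (MulAction.fixedPoints (zpowers x) S) = 1 := by
    rw [Nat.card_eq_one_iff_unique]
    refine ⟨⟨?_⟩, ⟨⟨1, ?_⟩⟩⟩
    · rintro ⟨a, ha⟩ ⟨b, hb⟩
      apply Subtype.ext
      have key : ∀ c : S, c ∈ MulAction.fixedPoints (zpowers x) S → c = 1 := by
        intro c hc
        have h2 := hc ⟨x, mem_zpowers x⟩
        have h3 : x * (c : G) * x⁻¹ = c := congrArg Subtype.val h2
        have h4 : (c : G) * x = x * c := by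
          calc (c : G) * x = (x * (c : G) * x⁻¹) * x := by rw [h3]
            _ = x * c := by group
        have h5 : (c : G) ∈ zpowers x := hC ▸ mem_centralizer_of_commute h4
        have h6 : (c : G) ∈ S ⊓ zpowers x := ⟨c.2, h5⟩
        rw [h0, mem_bot] at h6
        ext
        exact h6
      exact (key a ha).trans (key b hb).symm
    · intro g
      ext
      simp [φ, MulAction.compHom_smul_def]
  rw [hfix] at h1
  have hp2 := hp.two_le
  have := Nat.mod_eq_of_lt (show 1 < p from hp.one_lt)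
  rw [Nat.ModEq] at h1
  rw [h1, this]

/-- An element of order `p` is conjugate into `⟨x⟩`. -/
theorem exists_conj_mem (hp : p.Prime) (hx : orderOf x = p)
    (hC : centralizer ({x} : Set G) = zpowers x) {y : G} (hy : orderOf y = p) :
    ∃ g : G, g⁻¹ * y * g ∈ zpowers x := by
  have : Fact p.Prime := ⟨hp⟩
  obtain ⟨P, hP⟩ := exists_sylow hp hx hC
  have hpg : IsPGroup p (zpowers (y : G)) := by
    apply IsPGroup.of_card (n := 1)
    rw [Nat.card_zpowers, hy, pow_one]
  obtain ⟨Q, hQ⟩ := hpg.exists_le_sylow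
  obtain ⟨g, hg⟩ := MulAction.exists_smul_eq G P Q
  have hmem : (y : G) ∈ (g • P : Sylow p G) := by
    rw [hg]; exact hQ (mem_zpowers _)
  rw [Sylow.smul_def] at hmem
  have hmem' : g⁻¹ * y * g ∈ (P : Subgroup G) := by
    have := (Subgroup.mem_pointwise_smul_iff_inv_smul_mem (a := MulAut.conj g)
      (S := (P : Subgroup G)) (x := (y : G))).1 hmem
    simpa [MulAut.smul_def] using this
  rw [hP] at hmem'
  exact ⟨g, hmem'⟩

theorem orderOf_of_mem (hp : p.Prime) (hx : orderOf x = p) {y : G} (hy : y ∈ zpowers x)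
    (hy1 : y ≠ 1) : orderOf y = p := by
  rw [← Nat.card_zpowers, zpowers_eq_of_mem hp hx hy hy1, card_zpowers_eq hx]

/-- Two nontrivial elements of `⟨x⟩` conjugate in `G` are conjugate in the normalizer. -/
theorem mem_normalizer_of_conj (hp : p.Prime) (hx : orderOf x = p) {y g : G}
    (hy : y ∈ zpowers x) (hy1 : y ≠ 1) (hz : g * y * g⁻¹ ∈ zpowers x) :
    g ∈ normalizer ((zpowers x : Subgroup G) : Set G) := by
  have hzy := zpowers_eq_of_mem hp hx hy hy1
  rw [mem_normalizer_iff_map_conj_eq]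
  have hle : (zpowers x).map (MulAut.conj g).toMonoidHom ≤ zpowers x := by
    rw [← hzy, MonoidHom.map_zpowers, zpowers_le, hzy]
    simpa using hz
  apply Subgroup.eq_of_le_of_card_ge hle
  rw [Subgroup.card_map_of_injective (MulAut.conj g).injective]

section Count

variable (hp : p.Prime) (hx : orderOf x = p) (hC : centralizer ({x} : Set G) = zpowers x)
include hp hx hC

/-- Number of classes of elements of order `p` times `|N/P|` equals `p - 1`. -/
theorem card_classes_mul_relIndex :
    Nat.card {C : ConjClasses G // ∃ g ∈ C.carrier, orderOf g = p} *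
      (zpowers x).relIndex (normalizer ((zpowers x : Subgroup G) : Set G)) = p - 1 := by
  classical
  set N := normalizer ((zpowers x : Subgroup G) : Set G) with hN
  let A := {y : G // y ∈ zpowers x ∧ y ≠ 1}
  let T := {C : ConjClasses G // ∃ g ∈ C.carrier, orderOf g = p}
  let _ : Fintype T := Fintype.ofFinite T
  have hA : Nat.card A = p - 1 := by
    have h1 : (((zpowers x : Subgroup G) : Set G) \ {1}).ncard = p - 1 := by
      rw [Set.ncard_sdiff_singleton_of_mem (Subgroup.one_mem _)]
      congr 1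
      rw [← Nat.card_coe_set_eq]
      exact card_zpowers_eq hx
    rw [← h1, ← Nat.card_coe_set_eq]
    rfl
  let f : A → T := fun y => ⟨ConjClasses.mk y.1, y.1, ConjClasses.mem_carrier_mk,
    orderOf_of_mem hp hx y.2.1 y.2.2⟩
  have hfib : ∀ c : T, Nat.card {a : A // f a = c} = (zpowers x).relIndex N := by
    rintro ⟨C, g, hg, hog⟩
    obtain ⟨h, hh⟩ := exists_conj_mem hp hx hC hog
    set y₀ := h⁻¹ * g * h with hy₀
    have hg1 : g ≠ 1 := by
      rintro rfl
      rw [orderOf_one] at hog
      exact hp.one_lt.ne hog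
    have hy01 : y₀ ≠ 1 := by
      intro h1
      apply hg1
      have : g = h * y₀ * h⁻¹ := by rw [hy₀]; group
      rw [this, h1]; simp
    have hC0 : ConjClasses.mk y₀ = C := by
      rw [← ConjClasses.mem_carrier_iff_mk_eq.1 hg, ConjClasses.mk_eq_mk_iff_isConj, isConj_iff]
      exact ⟨h, by rw [hy₀]; group⟩
    have hcen := centralizer_eq_of_mem hp hx hC hh hy01
    let φ : N → {a : A // f a = ⟨C, g, hg, hog⟩} := fun n =>
      ⟨⟨(n : G) * y₀ * (n : G)⁻¹, (mem_normalizer_iff.1 n.2 y₀).1 hh, by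
        intro h1
        apply hy01
        have : y₀ = (n : G)⁻¹ * ((n : G) * y₀ * (n : G)⁻¹) * n := by group
        rw [this, h1]; simp⟩, by
        apply Subtype.ext
        show ConjClasses.mk ((n : G) * y₀ * (n : G)⁻¹) = C
        rw [← hC0, ConjClasses.mk_eq_mk_iff_isConj, isConj_iff]
        exact ⟨(n : G)⁻¹, by group⟩⟩
    have hφ : ∀ a b : N, φ a = φ b ↔ (a : G)⁻¹ * b ∈ zpowers x := by
      intro a b
      constructor
      · intro h1
        have h2 : (a : G) * y₀ * (a : G)⁻¹ = (b : G) * y₀ * (b : G)⁻¹ :=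
          congrArg (fun z => z.1.1) h1
        rw [← hcen]
        apply mem_centralizer_of_commute
        calc (a : G)⁻¹ * b * y₀ = (a : G)⁻¹ * ((b : G) * y₀ * (b : G)⁻¹) * b := by group
          _ = (a : G)⁻¹ * ((a : G) * y₀ * (a : G)⁻¹) * b := by rw [h2]
          _ = y₀ * ((a : G)⁻¹ * b) := by group
      · intro h1
        apply Subtype.ext
        apply Subtype.ext
        show (a : G) * y₀ * (a : G)⁻¹ = (b : G) * y₀ * (b : G)⁻¹
        rw [← hcen] at h1
        rw [mem_centralizer_singleton_iff] at h1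
        calc (a : G) * y₀ * (a : G)⁻¹ = a * (y₀ * ((a : G)⁻¹ * b)) * (b : G)⁻¹ := by group
          _ = a * ((a : G)⁻¹ * b * y₀) * (b : G)⁻¹ := by rw [h1]
          _ = (b : G) * y₀ * (b : G)⁻¹ := by group
    let H := (zpowers x).subgroupOf N
    let F : N ⧸ H → {a : A // f a = ⟨C, g, hg, hog⟩} := fun q =>
      Quotient.liftOn' q φ (by
        intro a b hab
        rw [QuotientGroup.leftRel_apply] at hab
        exact (hφ a b).2 hab)
    have hbij : Function.Bijective F := by
      constructor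
      · intro q r
        induction q using QuotientGroup.induction_on with
        | H a =>
          induction r using QuotientGroup.induction_on with
          | H b =>
            intro h1
            rw [QuotientGroup.eq]
            exact (hφ a b).1 h1
      · rintro ⟨⟨y, hy, hy1⟩, hfy⟩
        have h2 : ConjClasses.mk y = C := congrArg Subtype.val hfy
        rw [← hC0, ConjClasses.mk_eq_mk_iff_isConj, isConj_comm, isConj_iff] at h2
        obtain ⟨n, hn⟩ := h2
        have hnN : n ∈ N := mem_normalizer_of_conj hp hx hh hy01 (by rw [hn]; exact hy)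
        refine ⟨(QuotientGroup.mk ⟨n, hnN⟩ : N ⧸ H), ?_⟩
        apply Subtype.ext
        apply Subtype.ext
        exact hn
    have h3 := Nat.card_congr (Equiv.ofBijective F hbij)
    rw [← h3]
    rfl
  have h2 : Nat.card A = ∑ c : T, Nat.card {a : A // f a = c} := by
    rw [← Nat.card_sigma]
    exact Nat.card_congr (Equiv.sigmaFiberEquiv f).symm
  rw [← hA, h2, Finset.sum_congr rfl (fun c _ => hfib c), Finset.sum_const, smul_eq_mul,
    Finset.card_univ, Nat.card_eq_fintype_card]

end Count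

/-- If the derived subgroup has order prime to `p`, then it has index `p`. -/
theorem index_commutator_of_not_dvd (hp : p.Prime) (hx : orderOf x = p)
    (hC : centralizer ({x} : Set G) = zpowers x) (hD : ¬ p ∣ Nat.card (commutator G)) :
    (commutator G).index = p := by
  have h1 := centralizer_mk_eq hp hx hC (commutator G) hD
  have hcomm : ∀ a b : G ⧸ commutator G, a * b = b * a := by
    intro a b
    obtain ⟨a, rfl⟩ := QuotientGroup.mk_surjective a
    obtain ⟨b, rfl⟩ := QuotientGroup.mk_surjective b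
    have : a * b * a⁻¹ * b⁻¹ ∈ commutator G := by
      rw [commutator_def]
      have := Subgroup.commutator_mem_commutator (mem_top a) (mem_top b)
      simpa [commutatorElement_def] using this
    rw [← QuotientGroup.eq_one_iff] at this
    simp only [QuotientGroup.mk_mul, QuotientGroup.mk_inv] at this
    calc (a : G ⧸ commutator G) * b
        = ((a : G ⧸ commutator G) * b * (a : G ⧸ commutator G)⁻¹ * (b : G ⧸ commutator G)⁻¹)
            * (b * a) := by group
      _ = b * a := by rw [this, one_mul]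
  have htop : zpowers (QuotientGroup.mk x : G ⧸ commutator G) = ⊤ := by
    rw [← h1, eq_top_iff]
    intro q _
    rw [mem_centralizer_singleton_iff]
    exact hcomm _ _
  have h2 : Nat.card (zpowers (QuotientGroup.mk x : G ⧸ commutator G)) = Nat.card (G ⧸ commutator G) := by
    rw [htop]; exact Nat.card_congr Subgroup.topEquiv.toEquiv
  rw [Subgroup.index_eq_card, ← h2, Nat.card_zpowers, orderOf_mk_eq hp hx _ hD]

/-- Burnside: if `N_G(⟨x⟩) = ⟨x⟩` there is a normal `p`-complement. -/
theorem exists_normal_complement (hp : p.Prime) (hx : orderOf x = p)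
    (hC : centralizer ({x} : Set G) = zpowers x)
    (hN : normalizer ((zpowers x : Subgroup G) : Set G) ≤ zpowers x) :
    ∃ K : Subgroup G, K.Normal ∧ ¬ p ∣ Nat.card K ∧ commutator G ≤ K ∧
      Nat.card K * p = Nat.card G := by
  have : Fact p.Prime := ⟨hp⟩
  obtain ⟨P, hP⟩ := exists_sylow hp hx hC
  have hP' : normalizer (P : Set G) ≤ centralizer (P : Set G) := by
    intro g hg
    have hg' : g ∈ zpowers x := by
      apply hN
      rw [← hP]
      exact hg
    rw [show ((P : Set G)) = ((zpowers x : Subgroup G) : Set G) by rw [← hP]; rfl]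
    rw [Subgroup.mem_centralizer_iff]
    intro h hh
    obtain ⟨k, rfl⟩ := mem_zpowers_iff.1 hg'
    obtain ⟨l, rfl⟩ := mem_zpowers_iff.1 (SetLike.mem_coe.1 hh)
    exact (Commute.zpow_zpow_self x l k).eq
  refine ⟨(MonoidHom.transferSylow P hP').ker, inferInstance,
    MonoidHom.not_dvd_card_ker_transferSylow P hP', ?_, ?_⟩
  · rw [commutator_def, Subgroup.commutator_le]
    intro a _ b _
    rw [MonoidHom.mem_ker]
    have hcomm : ∀ u v : (P : Subgroup G), u * v = v * u := by
      intro u v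
      apply Subtype.ext
      have h1 : (u : G) ∈ zpowers x := hP ▸ u.2
      have h2 : (v : G) ∈ zpowers x := hP ▸ v.2
      obtain ⟨k, hk⟩ := mem_zpowers_iff.1 h1
      obtain ⟨l, hl⟩ := mem_zpowers_iff.1 h2
      show (u : G) * v = v * u
      rw [← hk, ← hl]
      exact (Commute.zpow_zpow_self x k l).eq
    simp only [commutatorElement_def, map_mul, map_inv]
    rw [hcomm _ (MonoidHom.transferSylow P hP' b)]
    group
  · have := (MonoidHom.ker_transferSylow_isComplement' P hP').card_mul_card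
    rw [← this, all_sylow_card hp hx hC P]

/-- If `N_G(⟨x⟩) ≠ ⟨x⟩` then `x` is in the derived subgroup. -/
theorem zpowers_le_commutator (hp : p.Prime) (hx : orderOf x = p)
    (hC : centralizer ({x} : Set G) = zpowers x)
    (hN : ¬ normalizer ((zpowers x : Subgroup G) : Set G) ≤ zpowers x) :
    zpowers x ≤ commutator G := by
  obtain ⟨n, hn, hn'⟩ := SetLike.not_le_iff_exists.1 hN
  set c := n * x * n⁻¹ * x⁻¹ with hc
  have hc1 : c ∈ zpowers x :=
    mul_mem ((mem_normalizer_iff.1 hn x).1 (mem_zpowers x)) (inv_mem (mem_zpowers x))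
  have hc2 : c ≠ 1 := by
    intro h
    apply hn'
    rw [← hC]
    apply mem_centralizer_of_commute
    have h7 : n * x * n⁻¹ = x := mul_inv_eq_one.1 h
    calc n * x = n * x * n⁻¹ * n := by group
      _ = x * n := by rw [h7]
  have hz := zpowers_eq_of_mem hp hx hc1 hc2
  rw [← hz, zpowers_le, commutator_def]
  have := Subgroup.commutator_mem_commutator (mem_top n) (mem_top x)
  simpa [commutatorElement_def] using this

theorem index_commutator_dvd (hp : p.Prime) (hx : orderOf x = p)
    (hC : centralizer ({x} : Set G) = zpowers x) (hle : zpowers x ≤ commutator G) :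
    (commutator G).index ∣ (zpowers x).relIndex (normalizer ((zpowers x : Subgroup G) : Set G)) := by
  have htop := normalizer_sup_eq_top_of_le hp hx hC (commutator G) hle
  have h1 := relIndex_dvd_of_le_left (normalizer ((zpowers x : Subgroup G) : Set G)) hle
  have h2 := relIndex_sup_right (H := normalizer ((zpowers x : Subgroup G) : Set G))
    (K := commutator G)
  rw [htop, relIndex_top_right] at h2
  rwa [h2]

end Cfsg.Agent.Lib.SelfCent.Basic
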