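import Mathlib
import Cfsg.Agent.Lib.SelfCent.Basic
import Cfsg.Agent.Lib.Char.Complete
import Cfsg.Agent.Lib.Char.Eigen
import Cfsg.Agent.Lib.Char.Burnside
import Cfsg.Agent.Lib.Char.Ortho
import Cfsg.Agent.Lib.Char.Degree
import Cfsg.Agent.Lib.CharDeep.Det

/-!
# Characters of degree `p - 1` in groups with a self-centralizing element of order `p`

* `det_eq_neg_one_of_trace`: a finite order operator whose nontrivial powers have trace zero has
  determinant `-1` (the operator is a multiple of a regular representation).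
* `even_index_of_hom`: a homomorphism to `ℂˣ` taking the value `-1` forces even index of `G'`.
* `card_conj_mem`: each class of elements of order `p` meets `⟨x⟩` in `|N(P):P|` elements.
* `sum_zpowers_eq_zero`: the trivial character of `⟨x⟩` does not occur in `χ` of degree `p - 1` when
  the number of classes of order `p` is odd.
-/

set_option autoImplicit false

namespace Cfsg.Agent.Lib.SelfCent.DegP1

open Subgroup Module Cfsg
open Cfsg.Agent.Lib.SelfCent.Basic
open Cfsg.Agent.Lib.Char.Ortho
open scoped ComplexConjugate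

section det

variable {V : Type*} [AddCommGroup V] [Module ℂ V] [FiniteDimensional ℂ V]

/-- A finite order operator all of whose nontrivial powers have zero trace, with dimension an odd
multiple of the even order, has determinant `-1`. -/
theorem det_eq_neg_one_of_trace (T : Module.End ℂ V) {n m : ℕ} (hn : n ≠ 0) (hne : Even n)
    (hm : Odd m) (hT : T ^ n = 1)
    (htr : ∀ k, 0 < k → k < n → LinearMap.trace ℂ V (T ^ k) = 0)
    (hd : finrank ℂ V = m * n) : LinearMap.det T = -1 := by
  classical
  obtain ⟨b, c, h1, h2⟩ := exists_eigenbasis T hn hT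
  set ω : ℂ := Complex.exp (2 * Real.pi * Complex.I / n) with hωdef
  have hω : IsPrimitiveRoot ω n := Complex.isPrimitiveRoot_exp n hn
  have hnpos : 0 < n := Nat.pos_of_ne_zero hn
  haveI : NeZero n := ⟨hn⟩
  have ha : ∀ i, ∃ a, a < n ∧ ω ^ a = c i := fun i => hω.eq_pow_of_pow_eq_one (h2 i)
  choose a ha1 ha2 using ha
  have hpowk : ∀ (k : ℕ) (i), (T ^ k) (b i) = c i ^ k • b i := by
    intro k i
    induction k with
    | zero => simp
    | succ k ih =>
      rw [pow_succ, Module.End.mul_apply, h1 i, map_smul, ih, smul_smul, pow_succ, mul_comm]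
  have htrk : ∀ k : ℕ, LinearMap.trace ℂ V (T ^ k) = ∑ i, c i ^ k := fun k =>
    trace_eq_sum_of_eigenbasis (T ^ k) b (fun i => c i ^ k) (hpowk k)
  have hω0 : ω ≠ 0 := hω.ne_zero hn
  have hcount : ∀ j ∈ Finset.range n,
      (Finset.univ.filter (fun i => a i = j)).card = m := by
    intro j hj
    have hj' : j < n := Finset.mem_range.1 hj
    have h3 : ∑ k ∈ Finset.range n, ((ω ^ j)⁻¹) ^ k * LinearMap.trace ℂ V (T ^ k) =
        ((m * n : ℕ) : ℂ) := by
      rw [Finset.sum_eq_single 0]
      · simp [hd]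
      · intro k hk hk0
        rw [htr k (Nat.pos_of_ne_zero hk0) (Finset.mem_range.1 hk), mul_zero]
      · intro h; exact absurd (Finset.mem_range.2 hnpos) h
    have h4 : ∑ k ∈ Finset.range n, ((ω ^ j)⁻¹) ^ k * LinearMap.trace ℂ V (T ^ k) =
        ∑ i, (if a i = j then (n : ℂ) else 0) := by
      simp only [htrk, Finset.mul_sum]
      rw [Finset.sum_comm]
      refine Finset.sum_congr rfl fun i _ => ?_
      have h5 : ∀ k, ((ω ^ j)⁻¹) ^ k * c i ^ k = ((ω ^ j)⁻¹ * c i) ^ k := fun k =>
        (mul_pow _ _ _).symm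
      simp only [h5]
      split_ifs with h6
      · have : (ω ^ j)⁻¹ * c i = 1 := by
          rw [← ha2 i, h6]
          exact inv_mul_cancel₀ (pow_ne_zero _ hω0)
        simp [this]
      · have hξ : (ω ^ j)⁻¹ * c i ≠ 1 := by
          intro h7
          have h8 : ω ^ a i = ω ^ j := by
            rw [ha2 i]
            have hne0 : ω ^ j ≠ 0 := pow_ne_zero _ hω0
            field_simp at h7
            exact h7
          exact h6 (hω.pow_inj (ha1 i) hj' h8)
        have hξn : ((ω ^ j)⁻¹ * c i) ^ n = 1 := by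
          rw [mul_pow, h2 i, mul_one, inv_pow, ← pow_mul, mul_comm, pow_mul, hω.pow_eq_one,
            one_pow, inv_one]
        have := geom_sum_mul ((ω ^ j)⁻¹ * c i) n
        rw [hξn, sub_self] at this
        exact (mul_eq_zero.1 this).resolve_right (sub_ne_zero.2 hξ)
    rw [h3, Finset.sum_ite, Finset.sum_const, Finset.sum_const_zero, add_zero, nsmul_eq_mul] at h4
    have h5 : (m * n : ℕ) = (Finset.univ.filter (fun i => a i = j)).card * n := by
      exact_mod_cast h4
    exact (Nat.eq_of_mul_eq_mul_right hnpos h5).symm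
  have hdet : LinearMap.det T = ∏ i, c i := by
    rw [← LinearMap.det_toMatrix b T]
    have : LinearMap.toMatrix b b T = Matrix.diagonal c := by
      ext i j
      rw [LinearMap.toMatrix_apply, h1 j, map_smul, Module.Basis.repr_self]
      by_cases hij : i = j
      · subst hij; simp
      · simp [hij, Ne.symm hij, Finsupp.single_apply]
    rw [this, Matrix.det_diagonal]
  rw [hdet]
  have h6 : ∏ i, c i = ∏ j ∈ Finset.range n, ∏ i ∈ Finset.univ.filter (fun i => a i = j), c i :=
    (Finset.prod_fiberwise_of_maps_to (fun i _ => Finset.mem_range.2 (ha1 i)) _).symm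
  have h7 : ∀ j ∈ Finset.range n, ∏ i ∈ Finset.univ.filter (fun i => a i = j), c i =
      (ω ^ j) ^ m := by
    intro j hj
    rw [← hcount j hj, ← Finset.prod_const]
    refine Finset.prod_congr rfl fun i hi => ?_
    rw [← ha2 i, (Finset.mem_filter.1 hi).2]
  rw [h6, Finset.prod_congr rfl h7, Finset.prod_pow, Finset.prod_pow_eq_pow_sum]
  obtain ⟨k, hk⟩ := hne
  have hk0 : 0 < k := by omega
  have hωk : ω ^ k = -1 := by
    have h8 : (ω ^ k) ^ 2 = 1 := by
      rw [← pow_mul, show k * 2 = n by omega, hω.pow_eq_one]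
    have h9 : ω ^ k ≠ 1 := hω.pow_ne_one_of_pos_of_lt hk0.ne' (by omega)
    have h10 : (ω ^ k - 1) * (ω ^ k + 1) = 0 := by
      have : (ω ^ k - 1) * (ω ^ k + 1) = (ω ^ k) ^ 2 - 1 := by ring
      rw [this, h8, sub_self]
    rcases mul_eq_zero.1 h10 with h | h
    · exact absurd (sub_eq_zero.1 h) h9
    · exact eq_neg_of_add_eq_zero_left h
  have hsum : ∑ j ∈ Finset.range n, j = k * (2 * k - 1) := by
    have h11 := Finset.sum_range_id_mul_two n
    apply Nat.eq_of_mul_eq_mul_right (show 0 < 2 by norm_num)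
    rw [h11, hk, show k + k = 2 * k by ring]
    ring
  rw [hsum, pow_mul, hωk]
  have hodd : Odd (2 * k - 1) := by
    refine ⟨k - 1, ?_⟩
    omega
  rw [hodd.neg_one_pow, hm.neg_one_pow]

end det

/-- A homomorphism to `ℂˣ` with value `-1` forces the commutator subgroup to have even index. -/
theorem even_index_of_hom {G : Type*} [Group G] [Finite G] (lam : G →* ℂˣ) (y : G)
    (hy : lam y = -1) : Even (commutator G).index := by
  have h1 : y ^ (commutator G).index ∈ commutator G := Subgroup.pow_index_mem _ _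
  have h2 : commutator G ≤ lam.ker := Abelianization.commutator_subset_ker lam
  have h3 := h2 h1
  rw [MonoidHom.mem_ker, map_pow, hy] at h3
  by_contra h
  rw [Nat.not_even_iff_odd] at h
  rw [h.neg_one_pow] at h3
  have := congrArg (fun u : ℂˣ => (u : ℂ)) h3
  norm_num at this

section main

variable {G : Type*} [Group G] [Finite G] {p : ℕ} {x : G}

open Cfsg.Agent.Lib.Char.Complete Cfsg.Agent.Lib.Char.Burnside Cfsg.Agent.Lib.Char.Basic
open Cfsg.Agent.Lib.Char.Degree

theorem orderOf_of_isConj' {a b : G} (h : IsConj a b) : orderOf b = orderOf a := by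
  obtain ⟨c, rfl⟩ := isConj_iff.1 h
  have : c * a * c⁻¹ = MulAut.conj c a := by simp [MulAut.conj_apply]
  rw [this]
  exact orderOf_injective (MulAut.conj c).toMonoidHom (MulAut.conj c).injective a

/-- Each class of elements of order `p` meets `⟨x⟩` in `|N(P) : P|` elements. -/
theorem card_conj_mem (hp : p.Prime) (hx : orderOf x = p)
    (hC : centralizer ({x} : Set G) = zpowers x) {g : G} (hog : orderOf g = p) :
    Nat.card {a : G // a ∈ zpowers x ∧ IsConj a g} =
      (zpowers x).relIndex (normalizer ((zpowers x : Subgroup G) : Set G)) := by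
  classical
  set N := normalizer ((zpowers x : Subgroup G) : Set G) with hN
  obtain ⟨h, hh⟩ := exists_conj_mem hp hx hC hog
  set y₀ := h⁻¹ * g * h with hy₀
  have hg1 : g ≠ 1 := by
    rintro rfl
    rw [orderOf_one] at hog
    exact hp.one_lt.ne hog
  have hy01 : y₀ ≠ 1 := by
    intro h1
    apply hg1
    have : g = h * y₀ * h⁻¹ := by rw [hy₀]; group
    rw [this, h1]; simp
  have hconj : IsConj y₀ g := by
    rw [isConj_iff]
    exact ⟨h, by rw [hy₀]; group⟩
  have hcen := centralizer_eq_of_mem hp hx hC hh hy01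
  let φ : N → {a : G // a ∈ zpowers x ∧ IsConj a g} := fun n =>
    ⟨(n : G) * y₀ * (n : G)⁻¹, (mem_normalizer_iff.1 n.2 y₀).1 hh,
      (isConj_iff.2 ⟨(n : G)⁻¹, by group⟩ : IsConj ((n : G) * y₀ * (n : G)⁻¹) y₀).trans hconj⟩
  have hφ : ∀ a b : N, φ a = φ b ↔ (a : G)⁻¹ * b ∈ zpowers x := by
    intro a b
    constructor
    · intro h1
      have h2 : (a : G) * y₀ * (a : G)⁻¹ = (b : G) * y₀ * (b : G)⁻¹ :=
        congrArg (fun z => z.1) h1
      rw [← hcen]
      apply mem_centralizer_of_commute
      calc (a : G)⁻¹ * b * y₀ = (a : G)⁻¹ * ((b : G) * y₀ * (b : G)⁻¹) * b := by group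
        _ = (a : G)⁻¹ * ((a : G) * y₀ * (a : G)⁻¹) * b := by rw [h2]
        _ = y₀ * ((a : G)⁻¹ * b) := by group
    · intro h1
      apply Subtype.ext
      show (a : G) * y₀ * (a : G)⁻¹ = (b : G) * y₀ * (b : G)⁻¹
      rw [← hcen] at h1
      rw [mem_centralizer_singleton_iff] at h1
      calc (a : G) * y₀ * (a : G)⁻¹ = a * (y₀ * ((a : G)⁻¹ * b)) * (b : G)⁻¹ := by group
        _ = a * ((a : G)⁻¹ * b * y₀) * (b : G)⁻¹ := by rw [h1]
        _ = (b : G) * y₀ * (b : G)⁻¹ := by group
  let H := (zpowers x).subgroupOf N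
  let F : N ⧸ H → {a : G // a ∈ zpowers x ∧ IsConj a g} := fun q =>
    Quotient.liftOn' q φ (by
      intro a b hab
      rw [QuotientGroup.leftRel_apply] at hab
      exact (hφ a b).2 hab)
  have hbij : Function.Bijective F := by
    constructor
    · intro q r
      induction q using QuotientGroup.induction_on with
      | H a =>
        induction r using QuotientGroup.induction_on with
        | H b =>
          intro h1
          rw [QuotientGroup.eq]
          exact (hφ a b).1 h1
    · rintro ⟨y, hy, hyg⟩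
      have h2 : IsConj y₀ y := hconj.trans hyg.symm
      rw [isConj_iff] at h2
      obtain ⟨n, hn⟩ := h2
      have hnN : n ∈ N := mem_normalizer_of_conj hp hx hh hy01 (by rw [hn]; exact hy)
      refine ⟨(QuotientGroup.mk ⟨n, hnN⟩ : N ⧸ H), ?_⟩
      apply Subtype.ext
      exact hn
  have h3 := Nat.card_congr (Equiv.ofBijective F hbij)
  rw [← h3]
  rfl

/-- The sum over `⟨x⟩ ∖ 1` of a class function. -/
theorem sum_filter_eq (hp : p.Prime) (hx : orderOf x = p)
    (hC : centralizer ({x} : Set G) = zpowers x) [Fintype G] [DecidableEq G]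
    [DecidablePred (· ∈ zpowers x)]
    [DecidableEq (ConjClasses G)] [Fintype (ConjClasses G)]
    [DecidablePred (fun C : ConjClasses G => ∃ g ∈ C.carrier, orderOf g = p)]
    (f : G → ℂ) (hf : ∀ a b, IsConj a b → f a = f b) :
    ∑ a ∈ Finset.univ.filter (fun a : G => a ∈ zpowers x ∧ a ≠ 1), f a =
      ((zpowers x).relIndex (normalizer ((zpowers x : Subgroup G) : Set G)) : ℂ) *
        ∑ C ∈ Finset.univ.filter (fun C : ConjClasses G => ∃ g ∈ C.carrier, orderOf g = p),
          f (Quotient.out C) := by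
  classical
  have hmaps : ∀ a ∈ Finset.univ.filter (fun a : G => a ∈ zpowers x ∧ a ≠ 1),
      ConjClasses.mk a ∈ Finset.univ.filter
        (fun C : ConjClasses G => ∃ g ∈ C.carrier, orderOf g = p) := by
    intro a ha
    obtain ⟨-, ha1, ha2⟩ := Finset.mem_filter.1 ha
    exact Finset.mem_filter.2 ⟨Finset.mem_univ _, a, ConjClasses.mem_carrier_mk,
      orderOf_of_mem hp hx ha1 ha2⟩
  rw [← Finset.sum_fiberwise_of_maps_to hmaps, Finset.mul_sum]
  refine Finset.sum_congr rfl fun C hC' => ?_
  obtain ⟨-, g, hg, hog⟩ := Finset.mem_filter.1 hC'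
  have hmk : ConjClasses.mk (Quotient.out C) = C := Quotient.out_eq C
  have hgC : ConjClasses.mk g = C := ConjClasses.mem_carrier_iff_mk_eq.1 hg
  have hgr : IsConj g (Quotient.out C) := by
    rw [← ConjClasses.mk_eq_mk_iff_isConj, hmk, hgC]
  have hor : orderOf (Quotient.out C) = p := by rw [orderOf_of_isConj' hgr, hog]
  have hr1 : ∀ a, ConjClasses.mk a = C → IsConj a (Quotient.out C) := by
    intro a ha
    rw [← ConjClasses.mk_eq_mk_iff_isConj, hmk, ha]
  have hsum : ∑ a ∈ (Finset.univ.filter (fun a : G => a ∈ zpowers x ∧ a ≠ 1)).filter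
      (fun a => ConjClasses.mk a = C), f a =
      ∑ a ∈ (Finset.univ.filter (fun a : G => a ∈ zpowers x ∧ a ≠ 1)).filter
      (fun a => ConjClasses.mk a = C), f (Quotient.out C) :=
    Finset.sum_congr rfl fun a ha => hf _ _ (hr1 a (Finset.mem_filter.1 ha).2)
  rw [hsum, Finset.sum_const, nsmul_eq_mul]
  congr 2
  rw [← card_conj_mem hp hx hC hor, Nat.card_eq_fintype_card, Fintype.card_subtype]
  congr 1
  ext a
  simp only [Finset.mem_filter, Finset.mem_univ, true_and]
  constructor
  · rintro ⟨⟨h1, -⟩, h2⟩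
    exact ⟨h1, hr1 a h2⟩
  · rintro ⟨h1, h2⟩
    refine ⟨⟨h1, ?_⟩, ?_⟩
    · rintro rfl
      have := orderOf_of_isConj' h2
      rw [hor, orderOf_one] at this
      exact hp.one_lt.ne' this
    · rw [← hmk, ConjClasses.mk_eq_mk_iff_isConj]
      exact h2

theorem sum_zpowers_split (f : G → ℂ) [Fintype G] [DecidableEq G] [DecidablePred (· ∈ zpowers x)]
    [Fintype (zpowers x)] :
    ∑ a : zpowers x, f a =
      f 1 + ∑ a ∈ Finset.univ.filter (fun a : G => a ∈ zpowers x ∧ a ≠ 1), f a := by
  have h1 : ∑ a ∈ Finset.univ.filter (fun a : G => a ∈ zpowers x), f a = ∑ a : zpowers x, f a :=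
    Finset.sum_subtype _ (by simp) f
  rw [← h1]
  have h2 : Finset.univ.filter (fun a : G => a ∈ zpowers x) =
      insert 1 (Finset.univ.filter (fun a : G => a ∈ zpowers x ∧ a ≠ 1)) := by
    ext a
    by_cases ha : a = 1
    · subst ha; simp
    · simp [ha]
  rw [h2, Finset.sum_insert (by simp)]

/-- The column sum. -/
theorem sum_norm_eq (hp : p.Prime) (hx : orderOf x = p)
    (hC : centralizer ({x} : Set G) = zpowers x) [Fintype G] [Fintype (IrrCharacter G)]
    [DecidableEq (ConjClasses G)] [Fintype (ConjClasses G)]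
    (s : Finset (ConjClasses G)) (hs : ∀ C ∈ s, ∃ g ∈ C.carrier, orderOf g = p) :
    ∑ χ : IrrCharacter G, (∑ C ∈ s, (χ : G → ℂ) (Quotient.out C)) *
      conj (∑ C ∈ s, (χ : G → ℂ) (Quotient.out C)) = (s.card : ℂ) * p := by
  classical
  simp only [map_sum, Finset.sum_mul, Finset.mul_sum]
  rw [Finset.sum_comm]
  have h1 : ∀ C ∈ s, ∑ χ : IrrCharacter G, ∑ D ∈ s,
      (χ : G → ℂ) (Quotient.out D) * conj ((χ : G → ℂ) (Quotient.out C)) = (p : ℂ) := by
    intro C hCs
    rw [Finset.sum_comm]
    simp only [sum_irr_mul_conj]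
    rw [Finset.sum_eq_single C]
    · rw [if_pos (IsConj.refl _)]
      obtain ⟨g, hg, hog⟩ := hs C hCs
      have hmk : ConjClasses.mk (Quotient.out C) = C := Quotient.out_eq C
      have hgC : ConjClasses.mk g = C := ConjClasses.mem_carrier_iff_mk_eq.1 hg
      have hgr : IsConj g (Quotient.out C) := by
        rw [← ConjClasses.mk_eq_mk_iff_isConj, hmk, hgC]
      have hor : orderOf (Quotient.out C) = p := by rw [orderOf_of_isConj' hgr, hog]
      obtain ⟨h, hh⟩ := exists_conj_mem hp hx hC hor
      set y₀ := h⁻¹ * Quotient.out C * h with hy₀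
      have hconj : IsConj y₀ (Quotient.out C) := isConj_iff.2 ⟨h, by rw [hy₀]; group⟩
      have hy01 : y₀ ≠ 1 := by
        intro h1
        have := orderOf_of_isConj' hconj
        rw [hor, h1, orderOf_one] at this
        exact hp.one_lt.ne' this
      have hcen := centralizer_eq_of_mem hp hx hC hh hy01
      have h2 : Nat.card (centralizer ({Quotient.out C} : Set G)) = p := by
        rw [← card_zpowers_eq hx, ← hcen]
        obtain ⟨c, hc⟩ := isConj_iff.1 hconj
        rw [← hc]
        have h8 : centralizer ({c * y₀ * c⁻¹} : Set G) =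
            (centralizer ({y₀} : Set G)).map (MulAut.conj c).toMonoidHom := by
          ext u
          rw [Subgroup.mem_map]
          constructor
          · intro hu
            refine ⟨c⁻¹ * u * c, ?_, ?_⟩
            · rw [mem_centralizer_singleton_iff] at hu ⊢
              calc c⁻¹ * u * c * y₀ = c⁻¹ * (u * (c * y₀ * c⁻¹)) * c := by group
                _ = c⁻¹ * ((c * y₀ * c⁻¹) * u) * c := by rw [hu]
                _ = y₀ * (c⁻¹ * u * c) := by group
            · simp [MulAut.conj_apply]; group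
          · rintro ⟨v, hv, rfl⟩
            rw [mem_centralizer_singleton_iff] at hv ⊢
            simp only [MulEquiv.coe_toMonoidHom, MulAut.conj_apply]
            calc c * v * c⁻¹ * (c * y₀ * c⁻¹) = c * (v * y₀) * c⁻¹ := by group
              _ = c * (y₀ * v) * c⁻¹ := by rw [hv]
              _ = c * y₀ * c⁻¹ * (c * v * c⁻¹) := by group
        rw [h8, Subgroup.card_map_of_injective (MulAut.conj c).injective]
      rw [h2]
    · intro D _ hDC
      rw [if_neg]
      intro hcj
      apply hDC
      have h5 : ConjClasses.mk (Quotient.out D) = ConjClasses.mk (Quotient.out C) :=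
        ConjClasses.mk_eq_mk_iff_isConj.2 hcj
      have h6 : ConjClasses.mk (Quotient.out C) = C := Quotient.out_eq C
      have h7 : ConjClasses.mk (Quotient.out D) = D := Quotient.out_eq D
      rw [← h6, ← h7, h5]
    · intro h; exact absurd hCs h
  rw [Finset.sum_congr rfl h1, Finset.sum_const, nsmul_eq_mul]

/-- The trivial character of `⟨x⟩` does not occur in `χ` of degree `p - 1`, when `p` is odd and the
number of classes of order `p` is odd. -/
theorem sum_zpowers_eq_zero (hp : p.Prime) (hx : orderOf x = p)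
    (hC : centralizer ({x} : Set G) = zpowers x) (hp2 : p ≠ 2)
    (ht : Odd (Nat.card {C : ConjClasses G // ∃ g ∈ C.carrier, orderOf g = p}))
    [Fintype G] [Fintype (zpowers x)] (χ : IrrCharacter G)
    (hχ : charDegree (χ : G → ℂ) + 1 = p) :
    ∑ a : zpowers x, (χ : G → ℂ) a = 0 := by
  classical
  haveI := finite_irrCharacter (G := G)
  letI := Fintype.ofFinite (IrrCharacter G)
  letI : Fintype (ConjClasses G) := Fintype.ofFinite _
  set cl := Finset.univ.filter (fun C : ConjClasses G => ∃ g ∈ C.carrier, orderOf g = p) with hcl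
  set t := cl.card with htdef
  set e := (zpowers x).relIndex (normalizer ((zpowers x : Subgroup G) : Set G)) with he
  have htcard : Nat.card {C : ConjClasses G // ∃ g ∈ C.carrier, orderOf g = p} = t := by
    rw [Nat.card_eq_fintype_card, Fintype.card_subtype]
  have hte : t * e = p - 1 := by
    rw [← htcard]; exact card_classes_mul_relIndex hp hx hC
  rw [htcard] at ht
  have hχc : IsCharacter G (χ : G → ℂ) := isCharacter_of_isIrrCharacter χ.2
  obtain ⟨d, ρ, hρ⟩ := hχc
  have hχc : IsCharacter G (χ : G → ℂ) := isCharacter_of_isIrrCharacter χ.2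
  have hcl_fun : ∀ a b, IsConj a b → (χ : G → ℂ) a = (χ : G → ℂ) b := by
    intro a b hab
    rw [← hρ]
    obtain ⟨c, rfl⟩ := isConj_iff.1 hab
    exact (isClassFunction_of_isCharacter (show IsCharacter G ρ.character from ⟨d, ρ, rfl⟩) a c).symm
  have hdeg : (χ : G → ℂ) 1 = ((p - 1 : ℕ) : ℂ) := by
    rw [← charDegree_natCast hχc, ← hχ]; simp
  have hp3 : 3 ≤ p := by
    have := hp.two_le
    omega
  -- the trivial constituent
  obtain ⟨n, hn⟩ := exists_nat_classInner (isCharacter_restrict (zpowers x) hχc)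
    (isCharacter_of_isIrrCharacter (isIrrCharacter_one (G := zpowers x)))
  rw [classInner_def] at hn
  have hPcard : (Nat.card (zpowers x) : ℂ) = p := by rw [card_zpowers_eq hx]
  rw [hPcard] at hn
  simp only [map_one, mul_one] at hn
  have hp0 : (p : ℂ) ≠ 0 := Nat.cast_ne_zero.2 hp.ne_zero
  have hsum : ∑ a : zpowers x, (χ : G → ℂ) a = (p : ℂ) * n := by
    rw [← hn]; field_simp
  by_contra hne
  have hn0 : n ≠ 0 := by
    rintro rfl
    apply hne
    rw [hsum]; simp
  set w : ℂ := ∑ C ∈ cl, (χ : G → ℂ) (Quotient.out C) with hw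
  have h1 : (p : ℂ) * n = ((p - 1 : ℕ) : ℂ) + (e : ℂ) * w := by
    rw [← hsum, sum_zpowers_split, hdeg, sum_filter_eq hp hx hC _ hcl_fun]
  have he0 : e ≠ 0 := by
    intro h0
    rw [h0, mul_zero] at hte
    omega
  -- integrality of `w`
  have hwint : IsIntegral ℤ w := by
    refine IsIntegral.sum _ fun C _ => ?_
    rw [← hρ]
    exact Cfsg.Agent.Lib.Char.Eigen.character_isIntegral ρ _
  have hwq : w = (((p * n - (p - 1 : ℕ) : ℚ) / e : ℚ) : ℂ) := by
    have he' : (e : ℂ) ≠ 0 := Nat.cast_ne_zero.2 he0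
    push_cast
    field_simp
    linear_combination -h1
  obtain ⟨W, hW⟩ : ∃ W : ℤ, w = W := by
    rw [hwq] at hwint ⊢
    have h2 : IsIntegral ℤ ((p * n - (p - 1 : ℕ) : ℚ) / e : ℚ) := by
      have := (isIntegral_algebraMap_iff (A := ℚ) (B := ℂ) (R := ℤ)
        (algebraMap ℚ ℂ).injective (x := ((p * n - (p - 1 : ℕ) : ℚ) / e : ℚ))).1
      apply this
      simpa using hwint
    obtain ⟨z, hz⟩ := IsIntegrallyClosed.isIntegral_iff.mp h2
    refine ⟨z, ?_⟩
    have : (((p * n - (p - 1 : ℕ) : ℚ) / e : ℚ)) = (z : ℚ) := by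
      rw [← hz]; simp
    rw [this]; simp
  have h3 : (p : ℤ) * n = (e : ℤ) * (t + W) := by
    have h4 : ((p : ℤ) * n : ℂ) = (((p - 1 : ℕ) : ℤ) : ℂ) + (e : ℂ) * W := by
      push_cast
      rw [← hW]
      exact_mod_cast h1
    have h5 : (p : ℤ) * n = ((p - 1 : ℕ) : ℤ) + (e : ℤ) * W := by exact_mod_cast h4
    rw [h5, ← hte]
    push_cast
    ring
  -- divisibility
  have hcop : Nat.Coprime e p := by
    have h6 : e ∣ p - 1 := ⟨t, by rw [← hte]; ring⟩
    have h7 : Nat.Coprime (p - 1) p := by
      have : p = (p - 1) + 1 := by omega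
      rw [Nat.coprime_iff_gcd_eq_one]
      conv_lhs => rw [this]
      simp
    exact Nat.Coprime.coprime_dvd_left h6 h7
  have hen : e ∣ n := by
    have h8 : (e : ℤ) ∣ (p : ℤ) * n := ⟨_, h3⟩
    have h9 : e ∣ p * n := by exact_mod_cast h8
    exact hcop.dvd_of_dvd_mul_left h9
  obtain ⟨a', ha'⟩ := hen
  have ha'0 : 0 < a' := by
    rcases Nat.eq_zero_or_pos a' with h | h
    · subst h; exact absurd (by simpa using ha') hn0
    · exact h
  have h10 : (t : ℤ) + W = p * a' := by
    have : (e : ℤ) ≠ 0 := by exact_mod_cast he0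
    apply mul_left_cancel₀ this
    rw [← h3, ha']
    push_cast
    ring
  have h11 : (p : ℤ) - t ≤ W := by
    have : (p : ℤ) * 1 ≤ p * a' :=
      mul_le_mul_of_nonneg_left (by exact_mod_cast ha'0) (by positivity)
    linarith
  -- the even index
  have he2 : 2 ≤ e := by
    have hpe : Even (p - 1) := (hp.odd_of_ne_two hp2).tsub_odd odd_one
    rw [← hte] at hpe
    have hee : Even e := (Nat.even_mul.1 hpe).resolve_left (Nat.not_even_iff_odd.2 ht)
    obtain ⟨k, hk⟩ := hee
    omega
  have h12 : 2 * t < p := by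
    have : t * 2 ≤ t * e := Nat.mul_le_mul_left _ he2
    omega
  -- the column sum
  have h13 := sum_norm_eq hp hx hC cl (fun C hC' => (Finset.mem_filter.1 hC').2)
  let τ : IrrCharacter G := ⟨fun _ => 1, isIrrCharacter_one⟩
  have hτχ : τ ≠ χ := by
    intro h
    have h14 : (χ : G → ℂ) 1 = 1 := by rw [← h]
    rw [hdeg] at h14
    have h15 : p - 1 = 1 := by exact_mod_cast h14
    omega
  let F : IrrCharacter G → ℝ := fun ψ => Complex.normSq (∑ C ∈ cl, (ψ : G → ℂ) (Quotient.out C))
  have hF : ∑ ψ, F ψ = (t : ℝ) * p := by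
    have h16 : ((∑ ψ, F ψ : ℝ) : ℂ) = ((t : ℝ) * p : ℝ) := by
      push_cast
      rw [← h13]
      refine Finset.sum_congr rfl fun ψ _ => ?_
      simp only [F]
      rw [Complex.mul_conj]
    exact_mod_cast h16
  have hFτ : F τ = (t : ℝ) ^ 2 := by
    simp only [F, τ, Finset.sum_const, nsmul_eq_mul, mul_one, ← htdef, Complex.normSq_natCast]
    ring
  have hFχ : F χ = (W : ℝ) ^ 2 := by
    simp only [F]
    rw [← hw, hW]
    rw [Complex.normSq_intCast]
    ring
  have hle : F τ + F χ ≤ ∑ ψ, F ψ := by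
    have := Finset.sum_le_sum_of_subset_of_nonneg (s := {τ, χ}) (t := Finset.univ) (f := F)
      (Finset.subset_univ _) (fun ψ _ _ => Complex.normSq_nonneg _)
    rwa [Finset.sum_pair hτχ] at this
  rw [hFτ, hFχ, hF] at hle
  have h17 : ((t : ℤ)) ^ 2 + W ^ 2 ≤ t * p := by exact_mod_cast hle
  have h18 : (t : ℤ) < p - t := by
    have : ((2 * t : ℕ) : ℤ) < p := by exact_mod_cast h12
    push_cast at this
    linarith
  have h19 : (0 : ℤ) ≤ t := by positivity
  nlinarith [mul_self_le_mul_self (by linarith : (0 : ℤ) ≤ p - t) h11, mul_pos (show (0:ℤ) < p - t - t by linarith) (show (0:ℤ) < p - t by linarith)]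

/-- The averaging operator over a subgroup on which the character has trivial sum vanishes. -/
theorem sum_rep_eq_zero {n : ℕ} (ρ : Representation ℂ G (Fin n → ℂ)) (H : Subgroup G) [Fintype H]
    (h0 : ∑ a : H, ρ.character a = 0) : ∑ a : H, ρ (a : G) = 0 := by
  classical
  set S : Module.End ℂ (Fin n → ℂ) := ∑ a : H, ρ (a : G) with hS
  have hcard : ((Fintype.card H : ℕ) : ℂ) ≠ 0 := Nat.cast_ne_zero.2 Fintype.card_ne_zero
  have hS1 : ∀ b : H, ρ (b : G) * S = S := by
    intro b
    rw [hS, Finset.mul_sum]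
    refine (Fintype.sum_equiv (Equiv.mulLeft b) _ _ fun a => ?_)
    simp [map_mul]
  have hSS : S * S = (Fintype.card H : ℂ) • S := by
    conv_lhs => rw [hS]
    rw [Finset.sum_mul, Finset.sum_congr rfl fun b _ => hS1 b, Finset.sum_const, Finset.card_univ,
      Nat.cast_smul_eq_nsmul]
  set π : Module.End ℂ (Fin n → ℂ) := (Fintype.card H : ℂ)⁻¹ • S with hπ
  have hidem : IsIdempotentElem π := by
    show π * π = π
    rw [hπ, smul_mul_smul_comm, hSS, smul_smul, mul_assoc, inv_mul_cancel₀ hcard, mul_one]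
  have htr : LinearMap.trace ℂ _ π = 0 := by
    rw [hπ, map_smul, hS, map_sum]
    have : ∑ a : H, LinearMap.trace ℂ (Fin n → ℂ) (ρ (a : G)) = 0 := h0
    rw [this, smul_zero]
  have hπ0 : π = 0 := (LinearMap.IsIdempotentElem.trace_eq_zero_iff hidem).1 htr
  have : S = (Fintype.card H : ℂ) • π := by
    rw [hπ, smul_smul, mul_inv_cancel₀ hcard, one_smul]
  rw [this, hπ0, smul_zero]

/-- If `g` normalizes `⟨x⟩` and lies outside, every element of the coset `g⟨x⟩` is conjugate to `g`. -/
theorem exists_conj_of_mem_normalizer (hp : p.Prime) (hx : orderOf x = p)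
    (hC : centralizer ({x} : Set G) = zpowers x) {g : G}
    (hg : g ∈ normalizer ((zpowers x : Subgroup G) : Set G)) (hgP : g ∉ zpowers x)
    {a : G} (ha : a ∈ zpowers x) : IsConj g (g * a) := by
  have hmem : ∀ b : zpowers x, g⁻¹ * (b : G)⁻¹ * g * b ∈ zpowers x := by
    intro b
    have h1 : g⁻¹ * (b : G)⁻¹ * g ∈ zpowers x := by
      have := (mem_normalizer_iff.1 (inv_mem hg) ((b : G)⁻¹)).1 (inv_mem b.2)
      simpa using this
    exact mul_mem h1 b.2
  let f : zpowers x → zpowers x := fun b => ⟨g⁻¹ * (b : G)⁻¹ * g * b, hmem b⟩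
  have hinj : Function.Injective f := by
    intro u v huv
    have h1 : g⁻¹ * (u : G)⁻¹ * g * u = g⁻¹ * (v : G)⁻¹ * g * v := congrArg Subtype.val huv
    have h2 : (u : G)⁻¹ * g * u = (v : G)⁻¹ * g * v := by
      have : g * (g⁻¹ * (u : G)⁻¹ * g * u) = g * (g⁻¹ * (v : G)⁻¹ * g * v) := by rw [h1]
      simpa [mul_assoc] using this
    by_contra hne
    have hc1 : (v : G) * (u : G)⁻¹ ∈ zpowers x := mul_mem v.2 (inv_mem u.2)
    have hc2 : (v : G) * (u : G)⁻¹ ≠ 1 := by
      intro h3
      apply hne
      apply Subtype.ext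
      exact (mul_inv_eq_one.1 h3).symm
    have hcen := centralizer_eq_of_mem hp hx hC hc1 hc2
    apply hgP
    rw [← hcen]
    apply mem_centralizer_of_commute
    calc g * ((v : G) * (u : G)⁻¹) = (v : G) * ((v : G)⁻¹ * g * v) * (u : G)⁻¹ := by group
      _ = (v : G) * ((u : G)⁻¹ * g * u) * (u : G)⁻¹ := by rw [h2]
      _ = (v : G) * (u : G)⁻¹ * g := by group
  have hsurj : Function.Surjective f := Finite.injective_iff_surjective.1 hinj
  obtain ⟨b, hb⟩ := hsurj ⟨a, ha⟩
  have h3 : g⁻¹ * (b : G)⁻¹ * g * b = a := congrArg Subtype.val hb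
  rw [isConj_iff]
  refine ⟨(b : G)⁻¹, ?_⟩
  rw [← h3]
  group

/-- Existence of the `2`-element. -/
theorem exists_two_element (hp : p.Prime) (hx : orderOf x = p)
    (hC : centralizer ({x} : Set G) = zpowers x) (hp2 : p ≠ 2)
    (ht : Odd (Nat.card {C : ConjClasses G // ∃ g ∈ C.carrier, orderOf g = p})) :
    ∃ y ∈ normalizer ((zpowers x : Subgroup G) : Set G), ∃ n m : ℕ, orderOf y = n ∧ Even n ∧
      Odd m ∧ p - 1 = m * n ∧ Nat.Coprime n p := by
  classical
  set P := zpowers x with hP
  set N := normalizer ((P : Subgroup G) : Set G) with hN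
  set t := Nat.card {C : ConjClasses G // ∃ g ∈ C.carrier, orderOf g = p} with htdef
  set e := P.relIndex N with he
  have hte : t * e = p - 1 := card_classes_mul_relIndex hp hx hC
  haveI : Fact p.Prime := ⟨hp⟩
  haveI : Fact (Nat.Prime 2) := ⟨Nat.prime_two⟩
  have hpodd : Odd p := hp.odd_of_ne_two hp2
  have hp3 : 3 ≤ p := by
    have := hp.two_le
    omega
  have hPle : P ≤ N := Subgroup.le_normalizer
  have hcardN : Nat.card N = p * e := by
    have h1 := (P.subgroupOf N).card_mul_index
    have h2 : Nat.card (P.subgroupOf N) = Nat.card P :=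
      Nat.card_congr (Subgroup.subgroupOfEquivOfLe hPle).toEquiv
    rw [h2, card_zpowers_eq hx] at h1
    exact h1.symm
  have he0 : e ≠ 0 := by
    intro h0
    rw [h0, mul_zero] at hte
    omega
  let Q : Sylow 2 N := default
  have hQcard : Nat.card Q = 2 ^ e.factorization 2 := by
    rw [Sylow.card_eq_multiplicity, hcardN, Nat.factorization_mul hp.ne_zero he0]
    have : p.factorization 2 = 0 :=
      Nat.factorization_eq_zero_of_not_dvd (by
        intro h
        exact hp2 ((Nat.prime_dvd_prime_iff_eq Nat.prime_two hp).1 h).symm)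
    simp [this]
  have hpe : Even (p - 1) := hpodd.tsub_odd odd_one
  have hee : Even e := by
    rw [← hte] at hpe
    exact (Nat.even_mul.1 hpe).resolve_left (Nat.not_even_iff_odd.2 ht)
  have hv : e.factorization 2 ≠ 0 := by
    intro h0
    have := (Nat.factorization_eq_zero_iff _ _).1 h0
    rcases this with h | h | h
    · exact h Nat.prime_two
    · exact h hee.two_dvd
    · exact he0 h
  -- cyclicity
  haveI : Fact (Nat.card P).Prime := ⟨by rw [card_zpowers_eq hx]; exact hp⟩
  haveI hcyc : IsCyclic (MulAut P) :=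
    isCyclic_of_injective (IsCyclic.mulAutMulEquiv P).toMonoidHom (IsCyclic.mulAutMulEquiv P).injective
  have hQq : ∀ q : Q, (((q : N) : G) ∈ P) → q = 1 := by
    intro q hq
    have h1 : orderOf (((q : N) : G)) ∣ p := by
      have := Subgroup.orderOf_dvd_natCard P hq
      rwa [card_zpowers_eq hx] at this
    have h2 : orderOf (((q : N) : G)) ∣ 2 ^ e.factorization 2 := by
      rw [Subgroup.orderOf_coe, Subgroup.orderOf_coe, ← hQcard]
      exact orderOf_dvd_natCard q
    have h3 : Nat.Coprime p (2 ^ e.factorization 2) :=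
      Nat.Coprime.pow_right _ ((Nat.coprime_primes hp Nat.prime_two).2 hp2)
    have h4 : orderOf (((q : N) : G)) = 1 := Nat.eq_one_of_dvd_coprimes h3 h1 h2
    rw [orderOf_eq_one_iff] at h4
    apply Subtype.ext
    apply Subtype.ext
    exact h4
  let φ : Q →* MulAut P := (normalizerMonoidHom P).comp (Q : Subgroup N).subtype
  have hφ : Function.Injective φ := by
    rw [injective_iff_map_eq_one]
    intro q hq
    apply hQq
    have h1 : (q : N) ∈ (normalizerMonoidHom P).ker := hq
    rw [normalizerMonoidHom_ker, Subgroup.mem_subgroupOf] at h1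
    show ((q : N) : G) ∈ P
    rw [← hC, mem_centralizer_singleton_iff]
    have := Subgroup.mem_centralizer_iff.1 h1 x (mem_zpowers x)
    exact this.symm
  haveI hcycQ : IsCyclic Q := isCyclic_of_injective φ hφ
  obtain ⟨gen, hgen⟩ := IsCyclic.exists_generator (α := Q)
  have hog : orderOf gen = Nat.card Q := orderOf_eq_card_of_forall_mem_zpowers hgen
  refine ⟨((gen : N) : G), (gen : N).2, 2 ^ e.factorization 2, t * ordCompl[2] e, ?_, ?_, ?_, ?_, ?_⟩
  · rw [Subgroup.orderOf_coe, Subgroup.orderOf_coe, hog, hQcard]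
  · exact (Nat.even_pow.2 ⟨even_two, hv⟩)
  · refine Odd.mul ht ?_
    rw [← Nat.not_even_iff_odd, even_iff_two_dvd]
    exact Nat.not_dvd_ordCompl Nat.prime_two he0
  · rw [← hte, mul_assoc, mul_comm (ordCompl[2] e), Nat.ordProj_mul_ordCompl_eq_self]
  · exact Nat.Coprime.pow_left _ ((Nat.coprime_primes Nat.prime_two hp).2 (Ne.symm hp2))

/-- Main theorem for odd `p`. -/
theorem even_index_of_odd (hp : p.Prime) (hx : orderOf x = p)
    (hC : centralizer ({x} : Set G) = zpowers x) (hp2 : p ≠ 2)
    (ht : Odd (Nat.card {C : ConjClasses G // ∃ g ∈ C.carrier, orderOf g = p}))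
    (χ : IrrCharacter G) (hχ : charDegree (χ : G → ℂ) + 1 = p) :
    Even (commutator G).index := by
  classical
  cases nonempty_fintype G
  letI : Fintype (zpowers x) := Fintype.ofFinite _
  have h0 := sum_zpowers_eq_zero hp hx hC hp2 ht χ hχ
  have hχc : IsCharacter G (χ : G → ℂ) := isCharacter_of_isIrrCharacter χ.2
  obtain ⟨d, ρ, hρ⟩ := isCharacter_of_isIrrCharacter χ.2
  have hS : ∑ a : zpowers x, ρ (a : G) = 0 := sum_rep_eq_zero ρ _ (by rw [hρ]; exact h0)
  obtain ⟨y, hyN, n, m, hyn, hne, hm, hpm, hcop⟩ := exists_two_element hp hx hC hp2 ht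
  have hn0 : n ≠ 0 := by
    rw [← hyn]; exact (orderOf_pos y).ne'
  have hvan : ∀ k, 0 < k → k < n → ρ.character (y ^ k) = 0 := by
    intro k hk hkn
    set g := y ^ k with hg
    have hgN : g ∈ normalizer ((zpowers x : Subgroup G) : Set G) := pow_mem hyN k
    have hgP : g ∉ zpowers x := by
      intro hgm
      have h1 : orderOf g ∣ p := by
        have := Subgroup.orderOf_dvd_natCard _ hgm
        rwa [card_zpowers_eq hx] at this
      have h2 : orderOf g ∣ n := by
        rw [← hyn]
        exact orderOf_dvd_of_pow_eq_one (by rw [hg, ← pow_mul, mul_comm, pow_mul, pow_orderOf_eq_one, one_pow])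
      have h3 : orderOf g = 1 := Nat.eq_one_of_dvd_coprimes hcop h2 h1
      rw [orderOf_eq_one_iff] at h3
      have h4 := orderOf_dvd_of_pow_eq_one h3
      rw [hyn] at h4
      exact absurd (Nat.le_of_dvd hk h4) (by omega)
    have hcf : IsClassFunction G ρ.character :=
      isClassFunction_of_isCharacter (show IsCharacter G ρ.character from ⟨d, ρ, rfl⟩)
    have h4 : ∀ a : zpowers x, ρ.character (g * a) = ρ.character g := by
      intro a
      obtain ⟨c, hc⟩ := isConj_iff.1 (exists_conj_of_mem_normalizer hp hx hC hgN hgP a.2)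
      rw [← hc]
      exact hcf g c
    have h5 : ∑ a : zpowers x, ρ.character (g * a) = 0 := by
      have h6 : ∑ a : zpowers x, ρ.character (g * a) =
          LinearMap.trace ℂ (Fin d → ℂ) (ρ g * ∑ a : zpowers x, ρ (a : G)) := by
        rw [Finset.mul_sum, map_sum]
        refine Finset.sum_congr rfl fun a _ => ?_
        show LinearMap.trace ℂ (Fin d → ℂ) (ρ (g * a)) = _
        rw [ρ.map_mul]
      rw [h6, hS, mul_zero, map_zero]
    rw [Finset.sum_congr rfl fun a _ => h4 a, Finset.sum_const, nsmul_eq_mul] at h5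
    have hc0 : ((Finset.univ : Finset (zpowers x)).card : ℂ) ≠ 0 :=
      Nat.cast_ne_zero.2 (Finset.card_ne_zero.2 Finset.univ_nonempty)
    exact (mul_eq_zero.1 h5).resolve_left hc0
  have hdet : LinearMap.det (ρ y) = -1 := by
    refine det_eq_neg_one_of_trace (ρ y) hn0 hne hm ?_ ?_ ?_
    · rw [← map_pow, ← hyn, pow_orderOf_eq_one, map_one]
    · intro k hk hkn
      rw [← map_pow]
      exact hvan k hk hkn
    · have h1 : (d : ℂ) = (χ : G → ℂ) 1 := by
        rw [← hρ, Representation.char_one]
        simp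
      have h2 : (χ : G → ℂ) 1 = ((p - 1 : ℕ) : ℂ) := by
        rw [← charDegree_natCast hχc, ← hχ]; simp
      rw [h2] at h1
      have h3 : d = p - 1 := by exact_mod_cast h1
      rw [Module.finrank_fin_fun, h3, hpm]
  exact even_index_of_hom (Cfsg.Agent.Lib.CharDeep.Det.repDet ρ) y (Units.ext (by simp [hdet]))

end main

end Cfsg.Agent.Lib.SelfCent.DegP1
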